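import Cfsg.Agent.H90.Cz.Om
import Cfsg.Agent.C2.Final
import Cfsg.Agent.S1325
import Cfsg.Agent.Golay.OrbOct

/-!
# The centralizer of a 2-central involution of `Co₁`
-/

set_option autoImplicit false
set_option maxHeartbeats 400000

namespace Cfsg.Agent.H90.Cz

open Cfsg Cfsg.Agent.Leech Cfsg.Agent.Golay Cfsg.Agent.C2 Cfsg.Agent.Orth QuadraticMap
open scoped Pointwise

/-- the projection -/
def pj : Co0 →* Spor.Co1 := QuotientGroup.mk' (Subgroup.center Co0)

theorem pj_surj : Function.Surjective pj := QuotientGroup.mk'_surjective _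

theorem pj_eq {g h : Co0} (he : pj g = pj h) : g = h ∨ g = negElt * h := by
  have h1 : g⁻¹ * h ∈ Subgroup.center Co0 := QuotientGroup.eq.1 he
  rcases center_cases h1 with h2 | h2
  · left
    exact inv_mul_eq_one.1 h2
  · right
    have h3 : h = g * negElt := by rw [← h2, mul_inv_cancel_left]
    rw [h3, ← mul_assoc, ← Subgroup.mem_center_iff.1 neg_mem_center g, mul_assoc, neg_mul_neg', mul_one]

theorem pj_neg (g : Co0) : pj (negElt * g) = pj g := by
  rw [map_mul]
  have h : pj negElt = 1 := (QuotientGroup.eq_one_iff _).2 neg_mem_center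
  rw [h, one_mul]

/-- words from masks -/
def cw (m : ℕ) : GolayPt → ZMod 2 := fun q => if q ∈ ofMask m then 1 else 0

theorem cw_mem {m : ℕ} (h : inCode m = true) : cw m ∈ golayCode :=
  (supports_mem_iff golayCode (ofMask m)).1 (ofMask_mem_supports h)

def m1 : ℕ := 337856
def m2 : ℕ := 3216208

theorem m1_code : inCode m1 = true := by decide +kernel
theorem m2_code : inCode m2 = true := by decide +kernel

theorem lift_cw (m : ℕ) (q : GolayPt) : lift (cw m) q = if q ∈ ofMask m then 1 else 0 := by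
  split_ifs with h
  · rw [lift_eq_one_iff, cw, if_pos h]; exact one_ne_zero
  · rw [lift_eq_zero_iff, cw, if_neg h]

theorem o1_mem : ofMask m1 ∈ octads := ⟨ofMask_mem_supports m1_code, by decide +kernel⟩
theorem o2_mem : ofMask m2 ∈ octads := ⟨ofMask_mem_supports m2_code, by decide +kernel⟩

theorem dis1 : ∀ q ∈ o0, q ∉ ofMask m1 := by decide +kernel
theorem dis2 : ∀ q ∈ o0, q ∉ ofMask m2 := by decide +kernel

theorem DC1 : DC (cw m1) := ⟨cw_mem m1_code, fun q hq => if_neg (dis1 q hq)⟩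
theorem DC2 : DC (cw m2) := ⟨cw_mem m2_code, fun q hq => if_neg (dis2 q hq)⟩

/-! ### `tE` and `-tE` are not conjugate -/

def xa : GolayPt → ℤ := fun q => if q ∈ ofMask m1 then 2 else 0
def ya : GolayPt → ℤ := fun q => if q = some 6 then 4 else if q = some 4 then -4 else 0

theorem xa_mem : xa ∈ leechLattice := by
  apply mem_of_test
  decide +kernel

theorem ya_mem : ya ∈ leechLattice := by
  apply mem_of_test
  decide +kernel

theorem xa_o0 : ∀ q ∈ o0, xa q = 0 := by decide +kernel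
theorem ya_o0 : ∀ q ∈ o0, ya q = 0 := by decide +kernel
theorem xy_dot : dotInt xa ya = 8 := by decide +kernel

theorem tE_neg {x : leechLattice} (h : ∀ q ∈ o0, (x : GolayPt → ℤ) q = 0) : tE • x = -x := by
  apply Subtype.ext
  funext q
  by_cases hq : q ∈ o0
  · rw [tE_in hq, AddSubgroup.coe_neg, Pi.neg_apply, h q hq, neg_zero]
  · rw [tE_out hq, AddSubgroup.coe_neg, Pi.neg_apply]

theorem not_anti {g : Co0} (h : g * tE = negElt * (tE * g)) : False := by
  have key : ∀ x : leechLattice, (∀ q ∈ o0, (x : GolayPt → ℤ) q = 0) → SO (g • x) := by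
    intro x hx
    rw [← tE_fix]
    have h1 := congrArg (fun k : Co0 => k • x) h
    simp only [mul_smul, tE_neg hx, co0_neg, negElt_smul] at h1
    exact (neg_injective h1).symm
  have h1 := dvd16 (key ⟨xa, xa_mem⟩ xa_o0) (key ⟨ya, ya_mem⟩ ya_o0)
  rw [co0_dot] at h1
  have h2 : (16 : ℤ) ∣ dotInt xa ya := h1
  rw [xy_dot] at h2
  norm_num at h2

/-! ### the centralizer in `Co₁` -/

/-- the involution -/
def zz : Spor.Co1 := pj tE

abbrev C1 : Subgroup Spor.Co1 := Subgroup.centralizer ({zz} : Set Spor.Co1)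

theorem mem_C1 (g : Co0) : pj g ∈ C1 ↔ g ∈ N := by
  rw [Subgroup.mem_centralizer_singleton_iff, mem_N]
  constructor
  · intro h
    have h1 : pj (g * tE) = pj (tE * g) := by rw [map_mul, map_mul]; exact h
    rcases pj_eq h1 with h2 | h2
    · exact h2.symm
    · exact (not_anti h2).elim
  · intro h
    show pj g * pj tE = pj tE * pj g
    rw [← map_mul, ← map_mul, h]

/-- the projection onto the centralizer -/
def ps : N →* C1 := (pj.comp N.subtype).codRestrict C1 (fun n => (mem_C1 n.1).2 n.2)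

theorem ps_coe (n : N) : (ps n : Spor.Co1) = pj n.1 := rfl

theorem ps_surj : Function.Surjective ps := by
  rintro ⟨c, hc⟩
  obtain ⟨g, rfl⟩ := pj_surj c
  exact ⟨⟨g, (mem_C1 g).1 hc⟩, Subtype.ext rfl⟩

theorem ps_ker_le : ps.ker ≤ Ph.ker := by
  rintro ⟨g, hg⟩ h
  rw [MonoidHom.mem_ker] at h ⊢
  have h1 : pj g = pj 1 := by
    rw [map_one]
    exact congrArg Subtype.val h
  rcases pj_eq h1 with h2 | h2
  · have : (⟨g, hg⟩ : N) = 1 := Subtype.ext h2
    rw [this, map_one]
  · have : (⟨g, hg⟩ : N) = ⟨negElt, neg_mem_N⟩ := Subtype.ext (h2.trans (mul_one _))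
    rw [this, Ph_neg]

/-- the representation of the centralizer -/
noncomputable def Ph1 : C1 →* Og := ps.liftOfSurjective ps_surj ⟨Ph, ps_ker_le⟩

theorem Ph1_ps (n : N) : Ph1 (ps n) = Ph n :=
  MonoidHom.liftOfRightInverse_comp_apply ps _ (Function.rightInverse_surjInv ps_surj) ⟨Ph, ps_ker_le⟩ n

theorem Ph1_range : Ph1.range = Om := by
  rw [← R_eq]
  ext r
  constructor
  · rintro ⟨c, rfl⟩
    obtain ⟨n, rfl⟩ := ps_surj c
    rw [Ph1_ps]
    exact ⟨n, rfl⟩
  · rintro ⟨n, rfl⟩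
    exact ⟨ps n, Ph1_ps n⟩

/-- the embedding of `D` -/
def jD : D →* C1 := ps.comp (Subgroup.inclusion D_le_N)

theorem jD_coe (d : D) : (jD d : Spor.Co1) = pj d.1 := rfl

theorem jD_inj : Function.Injective jD := by
  intro d d' h
  have h1 : pj d.1 = pj d'.1 := congrArg Subtype.val h
  rcases pj_eq h1 with h2 | h2
  · exact Subtype.ext h2
  · exfalso
    have h3 := (mem_D.1 d.2).2
    rw [h2, mul_smul, (mem_D.1 d'.2).2, negElt_smul] at h3
    have h4 := congrArg (fun x : leechLattice => (x : GolayPt → ℤ) (P 0)) h3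
    have h5 : -(Spor.leechU : GolayPt → ℤ) (P 0) = (Spor.leechU : GolayPt → ℤ) (P 0) := h4
    rw [U_P] at h5
    exact absurd h5 (by decide)

/-- transport of the elementwise structure along an injective homomorphism -/
theorem xs_map {A B : Type*} [Group A] [Group B] (j : A →* B) (hj : Function.Injective j) {Q : Subgroup A} {z : A}
    (h : H90.XS Q z) : H90.XS (Q.map j) (j z) where
  mem := ⟨z, h.mem, rfl⟩
  ne_one := by
    intro h1
    rw [← map_one j] at h1
    exact h.ne_one (hj h1)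
  sq := by rw [← map_mul, h.sq, map_one]
  central := by
    rintro _ ⟨q, hq, rfl⟩
    rw [← map_mul, ← map_mul, h.central q hq]
  comm := by
    rintro _ ⟨x, hx, rfl⟩ _ ⟨y, hy, rfl⟩
    rcases h.comm x hx y hy with h1 | h1
    · left; rw [← map_mul, ← map_mul, h1]
    · right; rw [← map_mul, ← map_mul, ← map_mul, h1]
  nondeg := by
    rintro _ ⟨x, hx, rfl⟩ hc
    rcases h.nondeg x hx (fun y hy => hj (by rw [map_mul, map_mul]; exact hc _ ⟨y, hy, rfl⟩)) with h1 | h1
    · left; rw [h1, map_one]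
    · right; rw [h1]

theorem ker_eq : Ph1.ker = F.ker.map jD := by
  ext c
  constructor
  · intro h
    obtain ⟨n, rfl⟩ := ps_surj c
    rw [MonoidHom.mem_ker, Ph1_ps] at h
    obtain ⟨k, hk, hF, hcase⟩ := Ph_ker_cases n.2 h
    refine ⟨⟨k, hk⟩, hF, ?_⟩
    apply Subtype.ext
    rw [jD_coe, ps_coe]
    rcases hcase with h1 | h1
    · rw [h1]
    · rw [h1, pj_neg]
  · rintro ⟨⟨k, hk⟩, hF, rfl⟩
    rw [MonoidHom.mem_ker]
    have h1 : Ph1 (jD ⟨k, hk⟩) = Ph ⟨k, D_le_N hk⟩ := Ph1_ps _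
    rw [h1]
    exact Ph_of_F hk hF

theorem xs1 : H90.XS Ph1.ker (jD ⟨tE, tE_mem_D⟩) := by
  rw [ker_eq]
  exact xs_map jD jD_inj xs

theorem card_ker1 : Nat.card Ph1.ker = 2 ^ 9 := by
  rw [ker_eq, ← card_ker]
  exact (Nat.card_congr (F.ker.equivMapOfInjective jD jD_inj).toEquiv).symm

theorem ex1 : IsExtraspecial 2 Ph1.ker := by
  obtain ⟨a, ha, b, hb, hab⟩ := exists_noncomm
  refine xs1.isExtraspecial (a := jD a) (b := jD b) ?_ ?_ ?_
  · rw [ker_eq]; exact ⟨a, ha, rfl⟩
  · rw [ker_eq]; exact ⟨b, hb, rfl⟩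
  · rw [← map_mul, ← map_mul]
    exact fun h => hab (jD_inj h)

/-! ### conjugating sign changes by permutations -/

theorem perm_flip {c c' : GolayPt → ZMod 2} (hc : c ∈ golayCode) (hc' : c' ∈ golayCode) {σ : Equiv.Perm GolayPt} (hσ : σ ∈ M24)
    (h : ∀ j, c' j = c (σ.symm j)) : permElt σ hσ * flipElt c hc = flipElt c' hc' * permElt σ hσ := by
  apply co0_ext
  intro x
  apply Subtype.ext
  funext j
  rw [mul_smul, mul_smul, permElt_apply, flipElt_apply, flipElt_apply, permElt_apply, C2.lift_congr (h j)]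

theorem flip_inj {c c' : GolayPt → ZMod 2} {hc : c ∈ golayCode} {hc' : c' ∈ golayCode} (h : flipElt c hc = flipElt c' hc') :
    c = c' := by
  have h1 : flipElt c hc * permElt 1 M24.one_mem = flipElt c' hc' * permElt 1 M24.one_mem := by rw [h]
  exact (mono_injective h1).1

theorem mem_smul_symm {σ : Equiv.Perm GolayPt} {s t : Finset GolayPt} (h : σ • s = t) (j : GolayPt) : j ∈ t ↔ σ.symm j ∈ s := by
  rw [← h]
  exact Finset.inv_smul_mem_iff.symm

theorem ite_smul_symm {R : Type} {σ : Equiv.Perm GolayPt} {s t : Finset GolayPt} (h : σ • s = t) (j : GolayPt) (a b : R) :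
    (if j ∈ t then a else b) = if σ.symm j ∈ s then a else b := by
  by_cases hj : j ∈ t
  · rw [if_pos hj, if_pos ((mem_smul_symm h j).1 hj)]
  · rw [if_neg hj, if_neg (fun h' => hj ((mem_smul_symm h j).2 h'))]

theorem exists_tau : ∃ τ ∈ M24, τ • o0 = o0 ∧ τ • ofMask m1 = ofMask m2 := by
  apply Cfsg.Agent.Golay.Orb.oct_pair_trans o0_mem o1_mem o0_mem o2_mem
  have h1 : o0 ∩ ofMask m1 = ∅ := by
    rw [Finset.eq_empty_iff_forall_notMem]
    intro q hq
    rw [Finset.mem_inter] at hq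
    exact dis1 q hq.1 hq.2
  have h2 : o0 ∩ ofMask m2 = ∅ := by
    rw [Finset.eq_empty_iff_forall_notMem]
    intro q hq
    rw [Finset.mem_inter] at hq
    exact dis2 q hq.1 hq.2
  rw [h1, h2]

/-- sign changes in the kernel -/
theorem flip_mem_D {c : GolayPt → ZMod 2} (hc : DC c) : flipElt c hc.1 ∈ D := by
  apply mem_D_of_e8
  intro q hq
  apply Subtype.ext
  funext j
  rw [flipElt_apply, e8_apply]
  by_cases h : j = q
  · rw [h, (lift_eq_zero_iff c q).2 (hc.2 q hq)]; ring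
  · rw [if_neg h, mul_zero]

theorem flip_mem_ker {c : GolayPt → ZMod 2} (hc : DC c) : (⟨flipElt c hc.1, flip_mem_D hc⟩ : D) ∈ F.ker := by
  rw [MonoidHom.mem_ker]
  apply F_one_of_fix
  intro q hq
  apply Subtype.ext
  funext j
  show ((flipElt c hc.1 • e8 q : leechLattice) : GolayPt → ℤ) j = _
  rw [flipElt_apply, e8_apply]
  by_cases h : j = q
  · rw [h, (lift_eq_zero_iff c q).2 (hc.2 q hq)]; ring
  · rw [if_neg h, mul_zero]

/-- an element of the centralizer moving an element of `Q` outside its coset of the centre -/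
theorem exists_move : ∃ c : C1, ∃ x ∈ Ph1.ker, c * x * c⁻¹ ≠ x ∧ c * x * c⁻¹ ≠ x * jD ⟨tE, tE_mem_D⟩ := by
  obtain ⟨τ, hτ, h0, h1⟩ := exists_tau
  have hN : permElt τ hτ ∈ N := by
    rw [mem_N, tE]
    refine (perm_flip wO_mem wO_mem hτ ?_).symm
    intro j
    exact ite_smul_symm h0 j _ _
  have hflip : permElt τ hτ * flipElt (cw m1) DC1.1 = flipElt (cw m2) DC2.1 * permElt τ hτ := by
    apply perm_flip
    intro j
    exact ite_smul_symm h1 j _ _
  have hx : ps ⟨permElt τ hτ, hN⟩ * jD ⟨flipElt (cw m1) DC1.1, flip_mem_D DC1⟩ * (ps ⟨permElt τ hτ, hN⟩)⁻¹ =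
      jD ⟨flipElt (cw m2) DC2.1, flip_mem_D DC2⟩ := by
    rw [mul_inv_eq_iff_eq_mul]
    apply Subtype.ext
    show pj (permElt τ hτ) * pj (flipElt (cw m1) DC1.1) = pj (flipElt (cw m2) DC2.1) * pj (permElt τ hτ)
    rw [← map_mul, ← map_mul, hflip]
  refine ⟨ps ⟨permElt τ hτ, hN⟩, jD ⟨flipElt (cw m1) DC1.1, flip_mem_D DC1⟩, ?_, ?_, ?_⟩
  · rw [ker_eq]
    exact ⟨_, flip_mem_ker DC1, rfl⟩
  · rw [hx]
    intro h
    have h2 := flip_inj (hc := DC2.1) (hc' := DC1.1) (congrArg Subtype.val (jD_inj h))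
    have h3 := congrFun h2 (some 7)
    exact absurd h3 (by decide +kernel)
  · rw [hx, ← map_mul]
    intro h
    have h2 : flipElt (cw m2) DC2.1 = flipElt (cw m1) DC1.1 * tE := congrArg Subtype.val (jD_inj h)
    have h3 := congrArg (fun g : Co0 => ((g • e8 (some 6) : leechLattice) : GolayPt → ℤ) (some 6)) h2
    simp only [mul_smul] at h3
    rw [flipElt_apply, flipElt_apply, tE_out (by decide +kernel), e8_apply, if_pos rfl, lift_cw, lift_cw,
      if_pos (by decide +kernel), if_pos (by decide +kernel)] at h3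
    norm_num at h3

/-! ### the generalized Fitting subgroup -/

instance finCo1 : Finite Spor.Co1 := by
  haveI : Finite Co0 := Nat.finite_of_card_ne_zero (by rw [card_Co0]; norm_num)
  infer_instance

/-- the representation onto the simple group -/
noncomputable def Ph2 : C1 →* ↥Om := (MulEquiv.subgroupCongr Ph1_range).toMonoidHom.comp Ph1.rangeRestrict

theorem Ph2_surj : Function.Surjective Ph2 :=
  (MulEquiv.subgroupCongr Ph1_range).surjective.comp Ph1.rangeRestrict_surjective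

theorem Ph2_ker : Ph2.ker = Ph1.ker := by
  ext c
  rw [MonoidHom.mem_ker, MonoidHom.mem_ker]
  constructor
  · intro h
    have h1 : ((Ph2 c : ↥Om) : Og) = 1 := by rw [h]; rfl
    exact h1
  · intro h
    apply Subtype.ext
    exact h

theorem cent_le : Subgroup.centralizer (Ph1.ker : Set C1) ≤ Ph1.ker := by
  haveI := simple_Om
  haveI hn : (Subgroup.centralizer (Ph1.ker : Set C1)).Normal := inferInstance
  haveI hm := Subgroup.Normal.map hn Ph2 Ph2_surj
  rcases IsSimpleGroup.eq_bot_or_eq_top_of_normal _ hm with h | h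
  · have h5 := (Subgroup.map_eq_bot_iff _).1 h
    rwa [Ph2_ker] at h5
  · exfalso
    obtain ⟨c, x, hx, h1, h2⟩ := exists_move
    have h3 : Ph2 c ∈ (Subgroup.centralizer (Ph1.ker : Set C1)).map Ph2 := by rw [h]; trivial
    obtain ⟨a, ha, hac⟩ := h3
    have hq : c * a⁻¹ ∈ Ph1.ker := by
      rw [← Ph2_ker, MonoidHom.mem_ker, map_mul, map_inv, hac, mul_inv_cancel]
    have hax : a * x * a⁻¹ = x := by
      have ha' := Subgroup.mem_centralizer_iff.1 ha
      rw [← ha' x hx, mul_inv_cancel_right]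
    have hcx : c * x * c⁻¹ = (c * a⁻¹) * x * (c * a⁻¹)⁻¹ := by
      calc c * x * c⁻¹ = (c * a⁻¹) * (a * x * a⁻¹) * (c * a⁻¹)⁻¹ := by group
        _ = _ := by rw [hax]
    rw [hcx] at h1 h2
    rcases xs1.conj_eq hx hq with h4 | h4
    · exact h1 h4
    · exact h2 h4

theorem no_nilp (M : Subgroup C1) (hM : M.Normal) (hnil : Group.IsNilpotent M) : M ≤ Ph1.ker := by
  haveI := simple_Om
  haveI hm := Subgroup.Normal.map hM Ph2 Ph2_surj
  rcases IsSimpleGroup.eq_bot_or_eq_top_of_normal _ hm with h | h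
  · rw [← Ph2_ker]
    exact (Subgroup.map_eq_bot_iff _).1 h
  · exfalso
    let f : M →* ↥Om := Ph2.comp M.subtype
    have hf : Function.Surjective f := by
      intro y
      have : y ∈ M.map Ph2 := by rw [h]; trivial
      obtain ⟨x, hx, rfl⟩ := this
      exact ⟨⟨x, hx⟩, rfl⟩
    haveI hno : Group.IsNilpotent ↥Om := Group.nilpotent_of_surjective f hf
    haveI hsol : Group.IsSolvable ↥Om := inferInstance
    have h1 := Group.IsSolvable.commutator_lt_top_of_nontrivial ↥Om
    rcases IsSimpleGroup.eq_bot_or_eq_top_of_normal (commutator ↥Om) inferInstance with h2 | h2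
    · have h3 := (commutator_eq_bot_iff_center_eq_top _).1 h2
      rw [center_Om] at h3
      exact bot_ne_top h3
    · exact (ne_of_lt h1) h2

theorem fstar : generalizedFittingSubgroup C1 = Ph1.ker := by
  haveI : Fact (Nat.Prime 2) := ⟨Nat.prime_two⟩
  apply le_antisymm
  · apply Cfsg.Agent.S1325.result
    · exact sSup_le (fun M hM => no_nilp M hM.1 hM.2)
    · exact cent_le
  · have h1 : IsPGroup 2 Ph1.ker := IsPGroup.of_card (n := 9) card_ker1
    have h2 : Group.IsNilpotent Ph1.ker := h1.isNilpotent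
    have h3 : Ph1.ker ≤ fittingSubgroup C1 := le_sSup ⟨inferInstance, h2⟩
    exact h3.trans le_sup_right

/-! ### the involution is not weakly closed -/

theorem word_neg {c c' : GolayPt → ZMod 2} (hc : c ∈ golayCode) (hc' : c' ∈ golayCode) (h : ∀ j, c' j = c j + 1) :
    negElt * flipElt c hc = flipElt c' hc' := by
  apply co0_ext
  intro x
  apply Subtype.ext
  funext j
  rw [mul_smul, negElt_smul, AddSubgroup.coe_neg, Pi.neg_apply, flipElt_apply, flipElt_apply]
  have key : ∀ a : ZMod 2, (1 - 2 * ((a + 1).val : ℤ)) = -(1 - 2 * (a.val : ℤ)) := by decide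
  unfold lift
  rw [h j, key]
  ring

theorem not_weakly : ∃ g : Spor.Co1, (∃ hq : g * zz * g⁻¹ ∈ C1, (⟨g * zz * g⁻¹, hq⟩ : C1) ∈ Ph1.ker) ∧ g * zz * g⁻¹ ≠ zz := by
  obtain ⟨σ, hσ, h1⟩ := M24_octad_transitive o0_mem o1_mem
  -- the complement word
  have hc1 : (fun j => cw m1 j + 1) ∈ golayCode := golayCode.add_mem (cw_mem m1_code) one_mem_code
  have h2 : permElt σ hσ * tE = flipElt (fun j => cw m1 j + 1) hc1 * permElt σ hσ := by
    rw [tE]
    apply perm_flip
    intro j
    show (if j ∈ ofMask m1 then (1 : ZMod 2) else 0) + 1 = if σ.symm j ∈ o0 then 0 else 1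
    rw [ite_smul_symm h1 j]
    split_ifs <;> decide
  have h3 : negElt * flipElt (cw m1) (cw_mem m1_code) = flipElt (fun j => cw m1 j + 1) hc1 :=
    word_neg _ _ (fun j => rfl)
  have h4 : pj (permElt σ hσ) * zz * (pj (permElt σ hσ))⁻¹ = (jD ⟨flipElt (cw m1) DC1.1, flip_mem_D DC1⟩ : Spor.Co1) := by
    rw [mul_inv_eq_iff_eq_mul]
    show pj (permElt σ hσ) * pj tE = pj (flipElt (cw m1) DC1.1) * pj (permElt σ hσ)
    rw [← map_mul, h2, ← h3, mul_assoc, pj_neg, map_mul]
  refine ⟨pj (permElt σ hσ), ⟨?_, ?_⟩, ?_⟩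
  · rw [h4]; exact (jD _).2
  · have h5 : (⟨pj (permElt σ hσ) * zz * (pj (permElt σ hσ))⁻¹, by rw [h4]; exact (jD _).2⟩ : C1) =
        jD ⟨flipElt (cw m1) DC1.1, flip_mem_D DC1⟩ := Subtype.ext h4
    rw [h5, ker_eq]
    exact ⟨_, flip_mem_ker DC1, rfl⟩
  · rw [h4]
    intro h6
    have h7 : pj (flipElt (cw m1) DC1.1) = pj tE := h6
    rcases pj_eq h7 with h8 | h8
    · have h9 := congrArg (fun g : Co0 => ((g • e8 (some 4) : leechLattice) : GolayPt → ℤ) (some 4)) h8
      rw [flipElt_apply, tE_out (by decide +kernel), e8_apply, if_pos rfl, lift_cw, if_neg (by decide +kernel)] at h9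
      norm_num at h9
    · have h9 := congrArg (fun g : Co0 => ((g • e8 (some 6) : leechLattice) : GolayPt → ℤ) (some 6)) h8
      simp only [mul_smul, negElt_smul, AddSubgroup.coe_neg, Pi.neg_apply] at h9
      rw [flipElt_apply, tE_out (by decide +kernel), e8_apply, if_pos rfl, lift_cw, if_pos (by decide +kernel)] at h9
      norm_num at h9

theorem order_zz : orderOf zz = 2 := by
  rw [orderOf_eq_prime_iff]
  have h := xs1
  constructor
  · rw [pow_two]
    exact congrArg Subtype.val h.sq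
  · intro h1
    apply h.ne_one
    apply Subtype.ext
    exact h1

theorem s5388 : ∃ z : Cfsg.Spor.Co1, orderOf z = 2 ∧ ∃ (Q : Subgroup (Subgroup.centralizer ({z} : Set Cfsg.Spor.Co1))) (_ : Q.Normal), Cfsg.generalizedFittingSubgroup (Subgroup.centralizer ({z} : Set Cfsg.Spor.Co1)) = Q ∧ Cfsg.IsExtraspecial 2 Q ∧ Nat.card Q = 2 ^ 9 ∧ Nonempty ((Subgroup.centralizer ({z} : Set Cfsg.Spor.Co1)) ⧸ Q ≃* Cfsg.Omega (ZMod 2) (Cfsg.quadFormPlus 4 (ZMod 2))) ∧ ∃ g : Cfsg.Spor.Co1, (∃ hq : g * z * g⁻¹ ∈ Subgroup.centralizer ({z} : Set Cfsg.Spor.Co1), (⟨g * z * g⁻¹, hq⟩ : Subgroup.centralizer ({z} : Set Cfsg.Spor.Co1)) ∈ Q) ∧ g * z * g⁻¹ ≠ z := by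
  refine ⟨zz, order_zz, Ph1.ker, inferInstance, fstar, ex1, card_ker1, ?_, not_weakly⟩
  exact ⟨((QuotientGroup.quotientMulEquivOfEq Ph2_ker.symm).trans
    (QuotientGroup.quotientKerEquivOfSurjective Ph2 Ph2_surj)).trans (Cfsg.Agent.ClassO.omE QF).symm⟩

end Cfsg.Agent.H90.Cz
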