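import Cfsg.Agent.H90.Cz.Rep8

/-!
# The kernel of the representation on `E8/2E8`
-/

set_option autoImplicit false
set_option maxHeartbeats 400000

namespace Cfsg.Agent.H90.Cz

open Cfsg Cfsg.Agent.Leech Cfsg.Agent.Golay Cfsg.Agent.C2 Cfsg.Agent.Orth QuadraticMap
open Cfsg.Agent.ClassSp (ext_vec one_mulVec')

theorem par_sq (v : ℤ) : ∃ k, v * v = v + 2 * k := by
  obtain ⟨k, hk⟩ := Int.even_mul_pred_self v
  have : v * (v - 1) = v * v - v := by ring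
  exact ⟨k, by omega⟩

theorem odd_sq (v : ℤ) (h : v % 2 = 1) : 1 ≤ v * v := by
  have : 0 < v * v := by
    apply mul_self_pos.2
    omega
  omega

theorem no64_8 {x : leechLattice} (hx : SO x) (hp : pr8 x = 0) (hn : sqNorm (x : GolayPt → ℤ) = 64) : False := by
  obtain ⟨u, e, s, h1⟩ := exists_par hx
  obtain ⟨a0, a1, a2, a3, b0, b1, b2, b3⟩ := pr8_par h1
  rw [hp] at a0 a1 a2 a3 b0 b1 b2 b3
  obtain ⟨k0, hk0⟩ := cast_even a0.symm
  obtain ⟨k1, hk1⟩ := cast_even a1.symm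
  obtain ⟨k2, hk2⟩ := cast_even a2.symm
  obtain ⟨k3, hk3⟩ := cast_even a3.symm
  obtain ⟨l0, hl0⟩ := cast_even b0.symm
  obtain ⟨l1, hl1⟩ := cast_even b1.symm
  obtain ⟨l2, hl2⟩ := cast_even b2.symm
  obtain ⟨l3, hl3⟩ := cast_even b3.symm
  have he : e = 0 := by
    rcases h1.e01 with h | h
    · exact h
    · exfalso; clear * - h hl3; omega
  clear hl3 b3 a0 a1 a2 a3 b0 b1 b2
  subst he
  rw [sq_dot, dot_par h1 h1, Fin.sum_univ_eight] at hn
  have hs := h1.sm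
  rw [Fin.sum_univ_eight] at hs
  generalize u 0 = u0 at *
  generalize u 1 = u1 at *
  generalize u 2 = u2 at *
  generalize u 3 = u3 at *
  generalize u 4 = u4 at *
  generalize u 5 = u5 at *
  generalize u 6 = u6 at *
  generalize u 7 = u7 at *
  clear h1 hp hx
  have hn2 : u0 * u0 + u1 * u1 + u2 * u2 + u3 * u3 + u4 * u4 + u5 * u5 + u6 * u6 + u7 * u7 = 4 := by
    linarith
  clear hn
  -- all coordinates are congruent to `u2`
  obtain ⟨m01, q01⟩ : ∃ m, u0 = u1 + 2 * m := ⟨k0 - l0 - u4, by linarith⟩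
  obtain ⟨m35, q35⟩ : ∃ m, u3 = -u5 + 2 * m := ⟨-k1 - l1, by linarith⟩
  obtain ⟨m25, q25⟩ : ∃ m, u5 = -u2 + 2 * m := ⟨-k1 - m01 - u1, by linarith⟩
  obtain ⟨m6, q6⟩ : ∃ m, u6 = -u2 + 2 * m := ⟨-k2 - m35, by linarith⟩
  obtain ⟨m4, q4⟩ : ∃ m, u4 = u2 + 2 * m := ⟨l2 - u1 - m01 - m6, by linarith⟩
  obtain ⟨m1, q1⟩ : ∃ m, u1 = u2 + 2 * m := ⟨-k0 + m35 - u5 + m4, by linarith⟩
  obtain ⟨m7, q7⟩ : ∃ m, u7 = -u2 + 2 * m := ⟨s - m01 - m1 - m1 - m35 - m4 - m6 - 1 * u2, by linarith⟩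
  obtain ⟨ms, qs⟩ : ∃ m, s = 2 * m := ⟨k3 - m1 + m25 + m6 + m7 - 2 * u2, by linarith⟩
  rcases Int.even_or_odd' u2 with ⟨v2, h2 | h2⟩
  · obtain ⟨v1, h1⟩ : ∃ v, u1 = 2 * v := ⟨v2 + m1, by linarith⟩
    obtain ⟨v0, h0⟩ : ∃ v, u0 = 2 * v := ⟨v1 + m01, by linarith⟩
    obtain ⟨v4, h4⟩ : ∃ v, u4 = 2 * v := ⟨v2 + m4, by linarith⟩
    obtain ⟨v5, h5⟩ : ∃ v, u5 = 2 * v := ⟨-v2 + m25, by linarith⟩
    obtain ⟨v3, h3⟩ : ∃ v, u3 = 2 * v := ⟨-v5 + m35, by linarith⟩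
    obtain ⟨v6, h6⟩ : ∃ v, u6 = 2 * v := ⟨-v2 + m6, by linarith⟩
    obtain ⟨v7, h7⟩ : ∃ v, u7 = 2 * v := ⟨-v2 + m7, by linarith⟩
    rw [h0, h1, h2, h3, h4, h5, h6, h7] at hn2
    have h9 : v0 * v0 + v1 * v1 + v2 * v2 + v3 * v3 + v4 * v4 + v5 * v5 + v6 * v6 + v7 * v7 = 1 := by linarith
    have hsv : v0 + v1 + v2 + v3 + v4 + v5 + v6 + v7 = s := by linarith
    obtain ⟨m0, hm0⟩ := par_sq v0
    obtain ⟨m1, hm1⟩ := par_sq v1
    obtain ⟨m2, hm2⟩ := par_sq v2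
    obtain ⟨m3, hm3⟩ := par_sq v3
    obtain ⟨m4, hm4⟩ := par_sq v4
    obtain ⟨m5, hm5⟩ := par_sq v5
    obtain ⟨m6, hm6⟩ := par_sq v6
    obtain ⟨m7, hm7⟩ := par_sq v7
    have hfin : 2 * (ms + m0 + m1 + m2 + m3 + m4 + m5 + m6 + m7) = 1 := by linarith
    clear * - hfin
    omega
  · have o1 : u1 % 2 = 1 := by clear * - h2 q1; omega
    have o0 : u0 % 2 = 1 := by clear * - o1 q01; omega
    have o2 : u2 % 2 = 1 := by clear * - h2; omega
    have o4 : u4 % 2 = 1 := by clear * - o2 q4; omega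
    have o5 : u5 % 2 = 1 := by clear * - o2 q25; omega
    have o3 : u3 % 2 = 1 := by clear * - o5 q35; omega
    have o6 : u6 % 2 = 1 := by clear * - o2 q6; omega
    have o7 : u7 % 2 = 1 := by clear * - o2 q7; omega
    have g0 := odd_sq u0 o0
    have g1 := odd_sq u1 o1
    have g2 := odd_sq u2 o2
    have g3 := odd_sq u3 o3
    have g4 := odd_sq u4 o4
    have g5 := odd_sq u5 o5
    have g6 := odd_sq u6 o6
    have g7 := odd_sq u7 o7
    linarith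

theorem Bf_self_zero {x y : leechLattice} (hx : SO x) (hy : SO y) (h : pr8 x = pr8 y) : Bf x y = 0 := by
  rw [Bf_polar hx hy, h, polar_self, two_smul]
  have : ∀ a : ZMod 2, a + a = 0 := by decide
  exact this _

/-- roots with the same image are equal or opposite -/
theorem root_inj8 {x y : leechLattice} (hx : SO x) (hy : SO y) (hnx : sqNorm (x : GolayPt → ℤ) = 32)
    (hny : sqNorm (y : GolayPt → ℤ) = 32) (h : pr8 x = pr8 y) : y = x ∨ y = -x := by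
  by_contra hcon
  rw [not_or] at hcon
  have h1 : Bf x y = 0 := Bf_self_zero hx hy h
  obtain ⟨a, ha⟩ := dvd16 hx hy
  unfold Bf at h1
  rw [ha, Int.mul_ediv_cancel_left _ (by norm_num)] at h1
  obtain ⟨k, hk⟩ := cast_even h1
  have e1 : sqNorm ((x - y : leechLattice) : GolayPt → ℤ) = 64 - 2 * dotInt (x : GolayPt → ℤ) y := by
    have := sqNorm_sub (x : GolayPt → ℤ) y
    rw [hnx, hny] at this
    exact this
  have e2 : sqNorm ((x + y : leechLattice) : GolayPt → ℤ) = 64 + 2 * dotInt (x : GolayPt → ℤ) y := by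
    have := sqNorm_add (x : GolayPt → ℤ) y
    rw [hnx, hny] at this
    exact this
  have p1 : sqNorm ((x - y : leechLattice) : GolayPt → ℤ) ≠ 0 := by
    intro h0
    rw [sqNorm_eq_zero_iff] at h0
    exact hcon.1 (sub_eq_zero.1 (Subtype.ext h0)).symm
  have p2 : sqNorm ((x + y : leechLattice) : GolayPt → ℤ) ≠ 0 := by
    intro h0
    rw [sqNorm_eq_zero_iff] at h0
    exact hcon.2 (eq_neg_of_add_eq_zero_right (Subtype.ext h0))
  have n1 := sqNorm_nonneg ((x - y : leechLattice) : GolayPt → ℤ)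
  have n2 := sqNorm_nonneg ((x + y : leechLattice) : GolayPt → ℤ)
  have h0 : dotInt (x : GolayPt → ℤ) y = 0 := by omega
  apply no64_8 (hx.add hy) _ (by rw [e2, h0]; norm_num)
  rw [pr8_add hx hy, h, v8_add_self]

theorem neg_mem_N : negElt ∈ N := by
  rw [mem_N]
  exact Subgroup.mem_center_iff.1 neg_mem_center tE

theorem D_le_N : D ≤ N := inf_le_left

theorem norm_U : sqNorm (Spor.leechU : GolayPt → ℤ) = 32 := by
  show sqNorm Spor.vecU = 32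
  decide +kernel

theorem Ph_neg : Ph ⟨negElt, neg_mem_N⟩ = 1 := by
  rw [Ph_one_iff]
  intro x hx
  show pr8 (negElt • x) = pr8 x
  rw [negElt_smul, pr8_neg hx]

/-- elements of `D` acting trivially -/
theorem F_one_of_Ph {g : Co0} (hg : g ∈ D) (h : Ph ⟨g, D_le_N hg⟩ = 1) : F ⟨g, hg⟩ = 1 := by
  rw [Ph_one_iff] at h
  apply ext_vec
  intro v
  have h1 := F_mulVec ⟨g, hg⟩ (sv_mem v)
  rw [pr_sv] at h1
  rw [h1, one_mulVec']
  conv_rhs => rw [← pr_sv v]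
  have hs := (sv_mem v).1
  have hgs : SO (g • sv v) := SO_N (D_le_N hg) hs
  have key : ∀ y, SO y → Bf (g • sv v) y = Bf (sv v) y := by
    intro y hy
    rw [Bf_polar hgs hy, Bf_polar hs hy]
    have := h _ hs
    rw [show pr8 (g • sv v) = pr8 (sv v) from this]
  funext k
  rcases k with i | i
  · exact key _ (SO_bb _)
  · exact key _ (SO_bb _)

theorem Ph_of_F {g : Co0} (hg : g ∈ D) (h : F ⟨g, hg⟩ = 1) : Ph ⟨g, D_le_N hg⟩ = 1 := by
  rw [Ph_one_iff]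
  intro x hx
  show pr8 (g • x) = pr8 x
  rw [fix_SO (ker_fix h) hx]

/-- `D` is the stabiliser of the root up to sign -/
theorem cases_U {g : Co0} (hg : g ∈ N) (h : pr8 (g • Spor.leechU) = pr8 Spor.leechU) : g ∈ D ∨ negElt * g ∈ D := by
  rcases root_inj8 SO_U (SO_N hg SO_U) norm_U (by rw [co0_norm, norm_U]) h.symm with h1 | h1
  · left
    exact mem_D.2 ⟨mem_N.1 hg, h1⟩
  · right
    refine mem_D.2 ⟨mem_N.1 (N.mul_mem neg_mem_N hg), ?_⟩
    rw [mul_smul, h1, negElt_smul, neg_neg]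

theorem neg_mul_neg' : negElt * negElt = 1 := by
  apply co0_ext
  intro x
  rw [mul_smul, negElt_smul, negElt_smul, neg_neg, one_smul]

/-- the kernel -/
theorem Ph_ker_cases {g : Co0} (hg : g ∈ N) (h : Ph ⟨g, hg⟩ = 1) :
    ∃ k : Co0, ∃ hk : k ∈ D, F ⟨k, hk⟩ = 1 ∧ (g = k ∨ g = negElt * k) := by
  have h1 := (Ph_one_iff _).1 h _ SO_U
  rcases cases_U hg h1 with h2 | h2
  · exact ⟨g, h2, F_one_of_Ph h2 h, Or.inl rfl⟩
  · refine ⟨negElt * g, h2, ?_, Or.inr ?_⟩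
    · apply F_one_of_Ph h2
      have h3 : (⟨negElt * g, D_le_N h2⟩ : N) = ⟨negElt, neg_mem_N⟩ * ⟨g, hg⟩ := rfl
      rw [h3, map_mul, Ph_neg, h, mul_one]
    · rw [← mul_assoc, neg_mul_neg', one_mul]

end Cfsg.Agent.H90.Cz
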