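import Cfsg.Agent.H90.Cz.Ker8
import Cfsg.Agent.S0293
import Cfsg.Agent.S0296
import Cfsg.Agent.ClassSp.Simple

/-!
# The image of the representation is `Ω₈⁺(2)`
-/

set_option autoImplicit false
set_option maxHeartbeats 400000

namespace Cfsg.Agent.H90.Cz

open Cfsg Cfsg.Agent.Leech Cfsg.Agent.Golay Cfsg.Agent.C2 Cfsg.Agent.Orth QuadraticMap

noncomputable abbrev Og : Type := ↥(OGrp QF)

noncomputable abbrev Om : Subgroup Og := commutator Og

theorem nondegQ : (polarBilin QF).Nondegenerate := qfPlus_nondegenerate 4 (ZMod 2)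

theorem RGrpQ : RGrp QF = ⊤ := Cfsg.Agent.ClassO.RGrp_plus (by norm_num)

theorem card_Og : Nat.card Og = 348364800 := by
  have h := Cfsg.Agent.S0287.result (F := ZMod 2) (q := 2) (by rw [ZMod.card]) 4 (by norm_num)
  have h2 : Nat.card (Cfsg.isometryGroup (ZMod 2) (Cfsg.quadFormPlus 4 (ZMod 2))) = Nat.card Og :=
    Nat.card_congr (bridge QF).toEquiv
  rw [← h2, h]
  decide

theorem center_Om : Subgroup.center ↥Om = ⊥ := by
  have h := Cfsg.Agent.ClassO.card_center_one nondegQ RGrpQ (Cfsg.Agent.ClassO.hyp_plus (ZMod 2) 4 (Fin.castLE (show 3 ≤ 4 by norm_num)) (Fin.castLE_injective _)) _ (Cfsg.Agent.ClassO.commutator_eq_EGrp nondegQ RGrpQ (Cfsg.Agent.ClassO.hyp_plus (ZMod 2) 4 (Fin.castLE (show 3 ≤ 4 by norm_num)) (Fin.castLE_injective _)))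
    (Or.inl (show (2 : ZMod 2) = 0 from rfl))
  exact Subgroup.card_eq_one.1 h

noncomputable def omP : ↥Om ≃* POmega (ZMod 2) (quadFormPlus 4 (ZMod 2)) :=
  ((Cfsg.Agent.ClassO.pomE QF).trans ((QuotientGroup.quotientMulEquivOfEq center_Om).trans
    QuotientGroup.quotientBot)).symm

theorem simple_Om : IsSimpleGroup ↥Om := by
  have : IsSimpleGroup (POmega (ZMod 2) (quadFormPlus 4 (ZMod 2))) := Cfsg.Agent.S0296.result 4 (by norm_num)
  exact omP.isSimpleGroup

theorem card_Om : Nat.card ↥Om = 174182400 := by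
  have h := Cfsg.Agent.S0293.result (F := ZMod 2) (q := 2) (by rw [ZMod.card]) 4 (by norm_num)
  rw [← Nat.card_congr omP.toEquiv] at h
  have h1 : Nat.gcd 4 (2 ^ 4 - 1) = 1 := by decide
  rw [h1, one_mul] at h
  rw [h]
  decide

/-- the image -/
noncomputable def R : Subgroup Og := Ph.range

/-- the image of the root -/
noncomputable def ub : V8 := pr8 Spor.leechU

noncomputable instance : MulAction Og V8 where
  smul g v := (g : V8 ≃ₗ[ZMod 2] V8) v
  one_smul _ := rfl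
  mul_smul _ _ _ := rfl

theorem og_smul (g : Og) (v : V8) : g • v = (g : V8 ≃ₗ[ZMod 2] V8) v := rfl

theorem r_smul (r : R) (v : V8) : r • v = ((r : Og) : V8 ≃ₗ[ZMod 2] V8) v := rfl

/-- the restriction to `D` -/
noncomputable def th : D →* Og := Ph.comp (Subgroup.inclusion D_le_N)

theorem th_ker : th.ker = F.ker := by
  ext ⟨g, hg⟩
  rw [MonoidHom.mem_ker, MonoidHom.mem_ker]
  exact ⟨fun h => F_one_of_Ph hg h, fun h => Ph_of_F hg h⟩

theorem card_th : Nat.card th.range = 1451520 := by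
  have h1 : Nat.card th.range = th.ker.index := (Subgroup.index_ker th).symm
  rw [h1, th_ker, Subgroup.index_ker F, MonoidHom.range_eq_top.2 F_surj, Subgroup.card_top,
    Cfsg.Agent.ClassSp.card_fin (F := ZMod 2) 3, ZMod.card]
  decide

theorem mem_th_range {r : Og} : r ∈ th.range ↔ r ∈ R ∧ (r : V8 ≃ₗ[ZMod 2] V8) ub = ub := by
  constructor
  · rintro ⟨g, rfl⟩
    refine ⟨⟨Subgroup.inclusion D_le_N g, rfl⟩, ?_⟩
    show (Ph (Subgroup.inclusion D_le_N g) : V8 ≃ₗ[ZMod 2] V8) (pr8 Spor.leechU) = _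
    rw [Ph_pr _ SO_U]
    show pr8 (g.1 • Spor.leechU) = _
    rw [(mem_D.1 g.2).2]
    rfl
  · rintro ⟨⟨g, rfl⟩, h⟩
    have h1 : (Ph g : V8 ≃ₗ[ZMod 2] V8) (pr8 Spor.leechU) = pr8 Spor.leechU := h
    rw [Ph_pr _ SO_U] at h1
    rcases cases_U g.2 h1 with h2 | h2
    · exact ⟨⟨g.1, h2⟩, rfl⟩
    · refine ⟨⟨negElt * g.1, h2⟩, ?_⟩
      show Ph ⟨negElt * g.1, _⟩ = Ph g
      have h3 : (⟨negElt * g.1, D_le_N h2⟩ : N) = ⟨negElt, neg_mem_N⟩ * g := rfl
      rw [h3, map_mul, Ph_neg, one_mul]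

theorem card_stab : Nat.card (MulAction.stabilizer R ub) = 1451520 := by
  rw [← card_th]
  apply Nat.card_congr
  refine ⟨fun r => ⟨r.1.1, mem_th_range.2 ⟨r.1.2, r.2⟩⟩, fun r => ⟨⟨r.1, (mem_th_range.1 r.2).1⟩, (mem_th_range.1 r.2).2⟩,
    fun r => rfl, fun r => rfl⟩

theorem orbit_R : (MulAction.orbit R ub).ncard * 1451520 = Nat.card R := by
  rw [← card_stab]
  exact orbit_mul_card ub

/-! ### lower bound -/

/-- the image as a function of the parameters -/
def wv (u : Fin 8 → ℤ) (e s : ℤ) : V8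
  | Sum.inl 0 => ((-u 1 + u 3 + u 4 - u 5 : ℤ) : ZMod 2)
  | Sum.inl 1 => ((-u 0 - u 1 - u 2 - u 5 - 2 * e : ℤ) : ZMod 2)
  | Sum.inl 2 => ((-u 2 - u 3 - u 5 - u 6 - 2 * e : ℤ) : ZMod 2)
  | Sum.inl 3 => ((u 1 - u 5 - u 6 - u 7 + s + e : ℤ) : ZMod 2)
  | Sum.inr 0 => ((-u 0 + u 3 - u 4 - u 5 - e : ℤ) : ZMod 2)
  | Sum.inr 1 => ((u 0 + u 1 + u 2 - u 3 + e : ℤ) : ZMod 2)
  | Sum.inr 2 => ((u 0 + u 1 + u 4 + u 6 + 2 * e : ℤ) : ZMod 2)
  | Sum.inr 3 => ((2 * u 0 + e : ℤ) : ZMod 2)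

theorem pr8_wv {x : leechLattice} {u : Fin 8 → ℤ} {e s : ℤ} (h : Par (x : GolayPt → ℤ) u e s) : pr8 x = wv u e s := by
  obtain ⟨a0, a1, a2, a3, b0, b1, b2, b3⟩ := pr8_par h
  funext k
  rcases k with i | i <;> fin_cases i
  · exact a0
  · exact a1
  · exact a2
  · exact a3
  · exact b0
  · exact b1
  · exact b2
  · exact b3

def pu (i j : Fin 8) : Fin 8 → ℤ := fun k => if k = i ∨ k = j then 1 else 0

theorem sw_sw (a b c : Fin 8) : Equiv.swap a b (Equiv.swap a b c) = c := Equiv.swap_apply_self a b c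

theorem exists_pi (i j : Fin 8) (h : i ≠ j) : ∃ π : Equiv.Perm (Fin 8), Equiv.Perm.sign π = 1 ∧ π 0 = i ∧ π 1 = j := by
  have h1 : ∃ π : Equiv.Perm (Fin 8), π 0 = i ∧ π 1 = j := by
    refine ⟨Equiv.swap (Equiv.swap 0 i 1) j * Equiv.swap 0 i, ?_, ?_⟩
    · rw [Equiv.Perm.mul_apply, Equiv.swap_apply_left]
      apply Equiv.swap_apply_of_ne_of_ne _ h
      intro h2
      have h3 := congrArg (Equiv.swap 0 i) h2
      rw [Equiv.swap_apply_right, sw_sw] at h3
      exact absurd h3 (by decide)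
    · rw [Equiv.Perm.mul_apply, Equiv.swap_apply_left]
  obtain ⟨π, h2, h3⟩ := h1
  rcases Int.units_eq_one_or (Equiv.Perm.sign π) with h4 | h4
  · exact ⟨π, h4, h2, h3⟩
  · refine ⟨π * Equiv.swap 2 3, ?_, ?_, ?_⟩
    · rw [map_mul, h4, Equiv.Perm.sign_swap (by decide)]
      decide
    · rw [Equiv.Perm.mul_apply, Equiv.swap_apply_of_ne_of_ne (by decide) (by decide), h2]
    · rw [Equiv.Perm.mul_apply, Equiv.swap_apply_of_ne_of_ne (by decide) (by decide), h3]

theorem pu_sum (i j : Fin 8) (h : i ≠ j) : ∑ k, pu i j k = 2 * 1 := by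
  revert i j; decide

theorem orbit_mem (i j : Fin 8) (h : i ≠ j) : wv (pu i j) 0 1 ∈ MulAction.orbit R ub := by
  obtain ⟨π, hπ, h0, h1⟩ := exists_pi i j h
  obtain ⟨g, hg, hgx⟩ := exists_mono π hπ ∅ (by decide)
  have hgN : g ∈ N := mem_N.2 hg
  have hpar : Par ((g • Spor.leechU : leechLattice) : GolayPt → ℤ) (pu i j) 0 1 := by
    refine ⟨fun q hq => SO_N hgN SO_U q hq, ?_, pu_sum i j h, Or.inl rfl⟩
    intro k
    obtain ⟨l, rfl⟩ := π.surjective k
    rw [hgx, U_P, if_neg (Finset.notMem_empty _), one_mul]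
    unfold pu
    rw [← h0, ← h1]
    simp only [π.injective.eq_iff]
    fin_cases l <;> simp [uU]
  refine ⟨⟨Ph ⟨g, hgN⟩, ⟨_, rfl⟩⟩, ?_⟩
  show (Ph ⟨g, hgN⟩ : V8 ≃ₗ[ZMod 2] V8) (pr8 Spor.leechU) = _
  rw [Ph_pr _ SO_U]
  exact pr8_wv hpar

def pairs : Finset (Fin 8 × Fin 8) := Finset.univ.filter (fun p => p.1 < p.2)

theorem pairs_inj : ∀ p ∈ pairs, ∀ q ∈ pairs, wv (pu p.1 p.2) 0 1 = wv (pu q.1 q.2) 0 1 → p = q := by
  decide +kernel

theorem card_pairs : pairs.card = 28 := by decide +kernel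

theorem orbit_ge : 28 ≤ (MulAction.orbit R ub).ncard := by
  classical
  have h1 : ((pairs.image (fun p => wv (pu p.1 p.2) 0 1) : Finset V8) : Set V8) ⊆ MulAction.orbit R ub := by
    intro v hv
    rw [Finset.mem_coe, Finset.mem_image] at hv
    obtain ⟨p, hp, rfl⟩ := hv
    apply orbit_mem
    rw [pairs, Finset.mem_filter] at hp
    exact ne_of_lt hp.2
  have h2 := Set.ncard_le_ncard h1 (Set.toFinite _)
  rw [Set.ncard_coe_finset, Finset.card_image_of_injOn (fun p hp q hq h => pairs_inj p hp q hq h), card_pairs] at h2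
  exact h2

/-! ### upper bound -/

def nsing : Finset V8 := Finset.univ.filter (fun v => ∑ i : Fin 4, v (Sum.inl i) * v (Sum.inr i) = 1)

theorem card_nsing : nsing.card = 120 := by decide +kernel

theorem orbit_le : (MulAction.orbit R ub).ncard ≤ 120 := by
  rw [← card_nsing, ← Set.ncard_coe_finset]
  apply Set.ncard_le_ncard _ (Set.toFinite _)
  rintro v ⟨r, rfl⟩
  rw [Finset.mem_coe, nsing, Finset.mem_filter]
  refine ⟨Finset.mem_univ _, ?_⟩
  have h1 : QF (((r : Og) : V8 ≃ₗ[ZMod 2] V8) ub) = QF ub := OGrp_q _ _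
  have h2 : QF ub = 1 := by
    rw [ub, ← qf_eq SO_U, qf, norm_U]
    decide
  rw [h2, qfPlus_apply] at h1
  exact h1

/-! ### the image -/

theorem card_R_le : Nat.card R ≤ 174182400 := by
  rw [← orbit_R]
  calc (MulAction.orbit R ub).ncard * 1451520 ≤ 120 * 1451520 := Nat.mul_le_mul_right _ orbit_le
    _ = 174182400 := by norm_num

theorem mul_index : (MulAction.orbit R ub).ncard * R.index = 240 := by
  have h1 := R.card_mul_index
  rw [card_Og, ← orbit_R] at h1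
  have h2 : (MulAction.orbit R ub).ncard * R.index * 1451520 = 240 * 1451520 := by
    calc (MulAction.orbit R ub).ncard * R.index * 1451520 = (MulAction.orbit R ub).ncard * 1451520 * R.index := by ring
      _ = 348364800 := h1
      _ = 240 * 1451520 := by norm_num
  exact Nat.eq_of_mul_eq_mul_right (by norm_num) h2

theorem index_le : R.index ≤ 8 ∧ R.index ≠ 0 := by
  have h1 := mul_index
  have h2 := orbit_ge
  constructor
  · by_contra h3
    have h4 : 9 ≤ R.index := by omega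
    have h5 : 28 * 9 ≤ (MulAction.orbit R ub).ncard * R.index := Nat.mul_le_mul h2 h4
    rw [h1] at h5
    omega
  · intro h0
    rw [h0, mul_zero] at h1
    omega

theorem Om_le : Om ≤ R := by
  haveI := simple_Om
  haveI hfin : Finite (Og ⧸ R) := Nat.finite_of_card_ne_zero index_le.2
  haveI : Fintype (Og ⧸ R) := Fintype.ofFinite _
  classical
  let ρ : ↥Om →* Equiv.Perm (Og ⧸ R) := (MulAction.toPermHom Og (Og ⧸ R)).comp Om.subtype
  have hker : ρ.ker = ⊥ ∨ ρ.ker = ⊤ := IsSimpleGroup.eq_bot_or_eq_top_of_normal _ inferInstance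
  rcases hker with h | h
  · exfalso
    have hinj : Function.Injective ρ := (MonoidHom.ker_eq_bot_iff ρ).1 h
    have h1 := Nat.card_le_card_of_injective ρ hinj
    rw [card_Om, Nat.card_eq_fintype_card, Fintype.card_perm, ← Nat.card_eq_fintype_card] at h1
    have h2 : Nat.card (Og ⧸ R) ≤ 8 := index_le.1
    have h3 := Nat.factorial_le h2
    have h4 : Nat.factorial 8 = 40320 := rfl
    omega
  · intro g hg
    have h1 : ρ ⟨g, hg⟩ = 1 := by
      rw [← MonoidHom.mem_ker, h]; trivial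
    have h2 := congrArg (fun π : Equiv.Perm (Og ⧸ R) => π ((1 : Og) : Og ⧸ R)) h1
    have h3 : ((g * 1 : Og) : Og ⧸ R) = ((1 : Og) : Og ⧸ R) := h2
    rw [mul_one, eq_comm, QuotientGroup.eq, inv_one, one_mul] at h3
    exact h3

theorem R_eq : R = Om := by
  haveI : Finite ↥R := by
    apply Nat.finite_of_card_ne_zero
    rw [← orbit_R]
    have := orbit_ge
    omega
  exact (Subgroup.eq_of_le_of_card_ge Om_le (by rw [card_Om]; exact card_R_le)).symm

end Cfsg.Agent.H90.Cz
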