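import Cfsg.Agent.C2.Extra
import Cfsg.Agent.C2.Surj
import Cfsg.Agent.Orth.Bridge

/-!
# The representation of the centralizer of the octad involution of `Co0` on `E8/2E8`
-/

set_option autoImplicit false

namespace Cfsg.Agent.H90.Cz

open Cfsg Cfsg.Agent.Leech Cfsg.Agent.Golay Cfsg.Agent.C2 Cfsg.Agent.Orth QuadraticMap

abbrev V8 : Type := Fin 4 ⊕ Fin 4 → ZMod 2

noncomputable abbrev QF : QuadraticForm (ZMod 2) V8 := qfPlus 4 (ZMod 2)

/-- parameters of the basis -/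
def au : Fin 4 ⊕ Fin 4 → Fin 8 → ℤ
  | Sum.inl 0 => ![-1, 0, 0, 1, -1, -1, 0, 0]
  | Sum.inl 1 => ![1, 1, 1, -1, 0, 0, 0, 0]
  | Sum.inl 2 => ![1, 1, 0, 0, 1, 0, 1, 0]
  | Sum.inl 3 => ![2, 0, 0, 0, 0, 0, 0, 0]
  | Sum.inr 0 => ![0, -1, 0, 1, 1, -1, 0, 0]
  | Sum.inr 1 => ![-1, -1, -1, 0, 0, -1, 0, 0]
  | Sum.inr 2 => ![0, 0, -1, -1, 0, -1, -1, 0]
  | Sum.inr 3 => ![0, 1, 0, 0, 0, -1, -1, -1]

def ae : Fin 4 ⊕ Fin 4 → ℤ
  | Sum.inr 3 => 1
  | _ => 0

def as' : Fin 4 ⊕ Fin 4 → ℤ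
  | Sum.inl 0 => -1
  | Sum.inl 1 => 1
  | Sum.inl 2 => 2
  | Sum.inl 3 => 1
  | Sum.inr 0 => 0
  | Sum.inr 1 => -2
  | Sum.inr 2 => -2
  | Sum.inr 3 => -1

def avec (k : Fin 4 ⊕ Fin 4) : GolayPt → ℤ := vecP (fun i => 4 * au k i + 2 * ae k)

theorem avec_mem (k : Fin 4 ⊕ Fin 4) : avec k ∈ leechLattice := by
  apply mem_of_test
  revert k
  decide +kernel

/-- the basis -/
def aa (k : Fin 4 ⊕ Fin 4) : leechLattice := ⟨avec k, avec_mem k⟩

theorem par_aa (k : Fin 4 ⊕ Fin 4) : Par (aa k : GolayPt → ℤ) (au k) (ae k) (as' k) where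
  supp := fun q hq => vecP_out (fun i => 4 * au k i + 2 * ae k) hq
  co := fun i => vecP_P (fun i => 4 * au k i + 2 * ae k) i
  sm := by revert k; decide
  e01 := by revert k; decide

theorem SO_aa (k : Fin 4 ⊕ Fin 4) : SO (aa k) := fun q hq => (par_aa k).supp q hq

/-- coordinates -/
def pr8 (x : leechLattice) : V8
  | Sum.inl i => Bf x (aa (Sum.inr i))
  | Sum.inr i => Bf x (aa (Sum.inl i))

theorem pr8_add {x y : leechLattice} (hx : SO x) (hy : SO y) : pr8 (x + y) = pr8 x + pr8 y := by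
  funext k
  rcases k with i | i
  · exact Bf_add_left hx hy (SO_aa _)
  · exact Bf_add_left hx hy (SO_aa _)

theorem pr8_zero : pr8 0 = 0 := by
  funext k
  rcases k with i | i
  · exact Bf_zero_left _
  · exact Bf_zero_left _

theorem pr8_neg {x : leechLattice} (hx : SO x) : pr8 (-x) = pr8 x := by
  funext k
  rcases k with i | i
  · exact Bf_neg_left _ _ hx (SO_aa _)
  · exact Bf_neg_left _ _ hx (SO_aa _)

theorem pr8_par {x : leechLattice} {u : Fin 8 → ℤ} {e s : ℤ} (h : Par (x : GolayPt → ℤ) u e s) :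
    pr8 x (Sum.inl 0) = ((-u 1 + u 3 + u 4 - u 5 : ℤ) : ZMod 2) ∧
    pr8 x (Sum.inl 1) = ((-u 0 - u 1 - u 2 - u 5 - 2 * e : ℤ) : ZMod 2) ∧
    pr8 x (Sum.inl 2) = ((-u 2 - u 3 - u 5 - u 6 - 2 * e : ℤ) : ZMod 2) ∧
    pr8 x (Sum.inl 3) = ((u 1 - u 5 - u 6 - u 7 + s + e : ℤ) : ZMod 2) ∧
    pr8 x (Sum.inr 0) = ((-u 0 + u 3 - u 4 - u 5 - e : ℤ) : ZMod 2) ∧
    pr8 x (Sum.inr 1) = ((u 0 + u 1 + u 2 - u 3 + e : ℤ) : ZMod 2) ∧
    pr8 x (Sum.inr 2) = ((u 0 + u 1 + u 4 + u 6 + 2 * e : ℤ) : ZMod 2) ∧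
    pr8 x (Sum.inr 3) = ((2 * u 0 + e : ℤ) : ZMod 2) := by
  refine ⟨?_, ?_, ?_, ?_, ?_, ?_, ?_, ?_⟩
  · show Bf x (aa (Sum.inr 0)) = _
    rw [Bf_par h (par_aa _), Fin.sum_univ_eight]
    congr 1
    simp [au, ae, as']
    ring
  · show Bf x (aa (Sum.inr 1)) = _
    rw [Bf_par h (par_aa _), Fin.sum_univ_eight]
    congr 1
    simp [au, ae, as']
    ring
  · show Bf x (aa (Sum.inr 2)) = _
    rw [Bf_par h (par_aa _), Fin.sum_univ_eight]
    congr 1
    simp [au, ae, as']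
    ring
  · show Bf x (aa (Sum.inr 3)) = _
    rw [Bf_par h (par_aa _), Fin.sum_univ_eight]
    congr 1
    simp [au, ae, as']
    ring
  · show Bf x (aa (Sum.inl 0)) = _
    rw [Bf_par h (par_aa _), Fin.sum_univ_eight]
    congr 1
    simp [au, ae, as']
    ring
  · show Bf x (aa (Sum.inl 1)) = _
    rw [Bf_par h (par_aa _), Fin.sum_univ_eight]
    congr 1
    simp [au, ae, as']
    try ring
  · show Bf x (aa (Sum.inl 2)) = _
    rw [Bf_par h (par_aa _), Fin.sum_univ_eight]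
    congr 1
    simp [au, ae, as']
    ring
  · show Bf x (aa (Sum.inl 3)) = _
    rw [Bf_par h (par_aa _), Fin.sum_univ_eight]
    congr 1
    simp [au, ae, as']
    ring

/-- the quadratic form -/
def qf (x : leechLattice) : ZMod 2 := ((sqNorm (x : GolayPt → ℤ) / 32 : ℤ) : ZMod 2)

theorem u7_of {u : Fin 8 → ℤ} {s : ℤ} (h : ∑ i, u i = 2 * s) :
    u 7 = 2 * s - (u 0 + u 1 + u 2 + u 3 + u 4 + u 5 + u 6) := by
  rw [Fin.sum_univ_eight] at h
  linarith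

theorem norm_par {x : leechLattice} {u : Fin 8 → ℤ} {e s : ℤ} (h : Par (x : GolayPt → ℤ) u e s) :
    sqNorm (x : GolayPt → ℤ) = 32 * (u 0 * u 0 + u 1 * u 1 + u 2 * u 2 + u 3 * u 3 + u 4 * u 4 + u 5 * u 5 + u 6 * u 6
      + (u 0 * u 1 + u 0 * u 2 + u 0 * u 3 + u 0 * u 4 + u 0 * u 5 + u 0 * u 6
      + u 1 * u 2 + u 1 * u 3 + u 1 * u 4 + u 1 * u 5 + u 1 * u 6
      + u 2 * u 3 + u 2 * u 4 + u 2 * u 5 + u 2 * u 6
      + u 3 * u 4 + u 3 * u 5 + u 3 * u 6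
      + u 4 * u 5 + u 4 * u 6 + u 5 * u 6) - 2 * s * (u 0 + u 1 + u 2 + u 3 + u 4 + u 5 + u 6) + 2 * s * s + e * s + e * e) := by
  rw [sq_dot, dot_par h h, Fin.sum_univ_eight, u7_of h.sm]
  ring

theorem dvd32 {x : leechLattice} (hx : SO x) : (32 : ℤ) ∣ sqNorm (x : GolayPt → ℤ) := by
  obtain ⟨u, e, s, h1⟩ := exists_par hx
  exact ⟨_, norm_par h1⟩

theorem qf_identity : ∀ u0 u1 u2 u3 u4 u5 u6 e s : ZMod 2,
    u0 * u0 + u1 * u1 + u2 * u2 + u3 * u3 + u4 * u4 + u5 * u5 + u6 * u6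
      + (u0 * u1 + u0 * u2 + u0 * u3 + u0 * u4 + u0 * u5 + u0 * u6
      + u1 * u2 + u1 * u3 + u1 * u4 + u1 * u5 + u1 * u6
      + u2 * u3 + u2 * u4 + u2 * u5 + u2 * u6
      + u3 * u4 + u3 * u5 + u3 * u6
      + u4 * u5 + u4 * u6 + u5 * u6) - 2 * s * (u0 + u1 + u2 + u3 + u4 + u5 + u6) + 2 * s * s + e * s + e * e =
    (-u1 + u3 + u4 - u5) * (-u0 + u3 - u4 - u5 - e) + (-u0 - u1 - u2 - u5 - 2 * e) * (u0 + u1 + u2 - u3 + e) +
    (-u2 - u3 - u5 - u6 - 2 * e) * (u0 + u1 + u4 + u6 + 2 * e) +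
    (u1 - u5 - u6 - (2 * s - (u0 + u1 + u2 + u3 + u4 + u5 + u6)) + s + e) * (2 * u0 + e) := by
  decide +kernel

/-- the form is the standard form -/
theorem qf_eq {x : leechLattice} (hx : SO x) : qf x = QF (pr8 x) := by
  obtain ⟨u, e, s, h1⟩ := exists_par hx
  obtain ⟨a0, a1, a2, a3, b0, b1, b2, b3⟩ := pr8_par h1
  rw [qfPlus_apply, Fin.sum_univ_four, a0, a1, a2, a3, b0, b1, b2, b3, u7_of h1.sm]
  unfold qf
  rw [norm_par h1, Int.mul_ediv_cancel_left _ (by norm_num)]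
  push_cast
  exact qf_identity _ _ _ _ _ _ _ _ _

theorem qf_add {x y : leechLattice} (hx : SO x) (hy : SO y) : qf (x + y) = qf x + qf y + Bf x y := by
  obtain ⟨a, ha⟩ := dvd32 hx
  obtain ⟨b, hb⟩ := dvd32 hy
  obtain ⟨c, hc⟩ := dvd16 hx hy
  have h1 : sqNorm ((x + y : leechLattice) : GolayPt → ℤ) = 32 * (a + b + c) := by
    have := sqNorm_add (x : GolayPt → ℤ) y
    rw [ha, hb, hc] at this
    refine (show sqNorm ((x + y : leechLattice) : GolayPt → ℤ) = _ from this).trans ?_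
    ring
  unfold qf Bf
  rw [h1, ha, hb, hc, Int.mul_ediv_cancel_left _ (by norm_num), Int.mul_ediv_cancel_left _ (by norm_num),
    Int.mul_ediv_cancel_left _ (by norm_num), Int.mul_ediv_cancel_left _ (by norm_num)]
  push_cast
  ring

theorem Bf_polar {x y : leechLattice} (hx : SO x) (hy : SO y) : Bf x y = polar QF (pr8 x) (pr8 y) := by
  unfold polar
  rw [← pr8_add hx hy, ← qf_eq (hx.add hy), ← qf_eq hx, ← qf_eq hy, qf_add hx hy]
  ring

/-- the centralizer of the involution -/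
def N : Subgroup Co0 := Subgroup.centralizer {tE}

theorem mem_N {g : Co0} : g ∈ N ↔ tE * g = g * tE := by
  rw [N, Subgroup.mem_centralizer_singleton_iff]
  exact eq_comm

theorem SO_N {g : Co0} (hg : g ∈ N) {x : leechLattice} (hx : SO x) : SO (g • x) := SO_smul (mem_N.1 hg) hx

theorem qf_smul (g : Co0) (x : leechLattice) : qf (g • x) = qf x := by
  unfold qf; rw [co0_norm]

theorem pr8_smul_zero {g : Co0} (hg : g ∈ N) {x : leechLattice} (hx : SO x) (h : pr8 x = 0) : pr8 (g • x) = 0 := by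
  have key : ∀ y, SO y → Bf (g • x) y = 0 := by
    intro y hy
    have h1 := Bf_smul g x (g⁻¹ • y)
    rw [smul_inv_smul, Bf_polar hx (SO_N (N.inv_mem hg) hy), h, polar_zero_left] at h1
    exact h1
  funext k
  rcases k with i | i
  · exact key _ (SO_aa _)
  · exact key _ (SO_aa _)

theorem v8_add_self (v : V8) : v + v = 0 := by
  funext k
  have : ∀ a : ZMod 2, a + a = 0 := by decide
  exact this _

theorem v8_eq_of_add {v w : V8} (h : v + w = 0) : v = w := by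
  funext k
  have h2 := congrFun h k
  have : ∀ a b : ZMod 2, a + b = 0 → a = b := by decide
  exact this _ _ h2

theorem pr8_smul_eq {g : Co0} (hg : g ∈ N) {x y : leechLattice} (hx : SO x) (hy : SO y) (h : pr8 x = pr8 y) :
    pr8 (g • x) = pr8 (g • y) := by
  have h1 : pr8 (g • (x + y)) = 0 := by
    apply pr8_smul_zero hg (hx.add hy)
    rw [pr8_add hx hy, h, v8_add_self]
  rw [co0_add, pr8_add (SO_N hg hx) (SO_N hg hy)] at h1
  exact v8_eq_of_add h1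

/-- vectors with given image -/
noncomputable def sv8 (v : V8) : leechLattice := ∑ k, (if v k = 0 then 0 else aa k)

theorem pr8_sum {ι : Type*} (s : Finset ι) (f : ι → leechLattice) (hf : ∀ i ∈ s, SO (f i)) :
    SO (∑ i ∈ s, f i) ∧ pr8 (∑ i ∈ s, f i) = ∑ i ∈ s, pr8 (f i) := by
  classical
  induction s using Finset.induction_on with
  | empty => exact ⟨SO.zero, pr8_zero⟩
  | insert a s ha ih =>
    have h1 := ih (fun i hi => hf i (Finset.mem_insert_of_mem hi))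
    have h2 := hf a (Finset.mem_insert_self a s)
    rw [Finset.sum_insert ha, Finset.sum_insert ha]
    exact ⟨h2.add h1.1, by rw [pr8_add h2 h1.1, h1.2]⟩

theorem SO_sv8 (v : V8) : SO (sv8 v) :=
  (pr8_sum _ _ (fun k _ => by split_ifs; exact SO.zero; exact SO_aa k)).1

theorem pr8_aa_check : ∀ k l : Fin 4 ⊕ Fin 4, (match l with
    | Sum.inl i => ((∑ j, au k j * au (Sum.inr i) j + ae (Sum.inr i) * as' k + ae k * as' (Sum.inr i) + 2 * ae k * ae (Sum.inr i) : ℤ) : ZMod 2)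
    | Sum.inr i => ((∑ j, au k j * au (Sum.inl i) j + ae (Sum.inl i) * as' k + ae k * as' (Sum.inl i) + 2 * ae k * ae (Sum.inl i) : ℤ) : ZMod 2)) =
    if l = k then 1 else 0 := by
  decide +kernel

theorem pr8_aa (k : Fin 4 ⊕ Fin 4) : pr8 (aa k) = Pi.single k 1 := by
  funext l
  rw [Pi.single_apply]
  have h := pr8_aa_check k l
  rcases l with i | i
  · exact (Bf_par (par_aa k) (par_aa (Sum.inr i))).trans h
  · exact (Bf_par (par_aa k) (par_aa (Sum.inl i))).trans h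

theorem pr8_sv8 (v : V8) : pr8 (sv8 v) = v := by
  unfold sv8
  rw [(pr8_sum _ _ (fun k _ => by split_ifs; exact SO.zero; exact SO_aa k)).2]
  have : ∀ k, pr8 (if v k = 0 then 0 else aa k) = Pi.single k (v k) := by
    intro k
    rcases zmod2 (v k) with h | h
    · rw [if_pos h, h, pr8_zero, Pi.single_zero]
    · rw [if_neg (by rw [h]; exact one_ne_zero), h, pr8_aa]
  rw [Finset.sum_congr rfl (fun k _ => this k), Finset.univ_sum_single]

/-- the linear map -/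
noncomputable def fl8 (g : N) : V8 →ₗ[ZMod 2] V8 :=
  AddMonoidHom.toZModLinearMap 2
    { toFun := fun v => pr8 (g.1 • sv8 v)
      map_zero' := pr8_smul_zero g.2 (SO_sv8 0) (pr8_sv8 0)
      map_add' := by
        intro v w
        have h1 : pr8 (g.1 • sv8 (v + w)) = pr8 (g.1 • (sv8 v + sv8 w)) := by
          apply pr8_smul_eq g.2 (SO_sv8 _) ((SO_sv8 v).add (SO_sv8 w))
          rw [pr8_sv8, pr8_add (SO_sv8 v) (SO_sv8 w), pr8_sv8, pr8_sv8]
        rw [h1, co0_add, pr8_add (SO_N g.2 (SO_sv8 v)) (SO_N g.2 (SO_sv8 w))] }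

theorem fl8_apply (g : N) (v : V8) : fl8 g v = pr8 (g.1 • sv8 v) := rfl

theorem fl8_pr (g : N) {x : leechLattice} (hx : SO x) : fl8 g (pr8 x) = pr8 (g.1 • x) := by
  rw [fl8_apply]
  exact pr8_smul_eq g.2 (SO_sv8 _) hx (pr8_sv8 _)

theorem fl8_mul (g h : N) (v : V8) : fl8 g (fl8 h v) = fl8 (g * h) v := by
  rw [fl8_apply h v, fl8_pr g (SO_N h.2 (SO_sv8 v)), ← mul_smul]
  rfl

theorem fl8_one (v : V8) : fl8 1 v = v := by
  rw [fl8_apply]
  show pr8 ((1 : Co0) • sv8 v) = v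
  rw [one_smul, pr8_sv8]

theorem fl8_QF (g : N) (v : V8) : QF (fl8 g v) = QF v := by
  rw [fl8_apply, ← qf_eq (SO_N g.2 (SO_sv8 v)), qf_smul, qf_eq (SO_sv8 v), pr8_sv8]

/-- the representation -/
noncomputable def Ph : N →* OGrp QF :=
  MonoidHom.mk' (fun g => mkIsom QF (fl8 g) (fl8 g⁻¹)
    (fun x => by rw [fl8_mul, mul_inv_cancel, fl8_one])
    (fun x => by rw [fl8_mul, inv_mul_cancel, fl8_one]) (fl8_QF g))
  (by
    intro g h
    apply OGrp_ext
    intro x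
    exact (fl8_mul g h x).symm)

theorem Ph_apply (g : N) (v : V8) : (Ph g : V8 ≃ₗ[ZMod 2] V8) v = fl8 g v := rfl

theorem Ph_pr (g : N) {x : leechLattice} (hx : SO x) : (Ph g : V8 ≃ₗ[ZMod 2] V8) (pr8 x) = pr8 (g.1 • x) := fl8_pr g hx

theorem Ph_eq_iff (g h : N) : Ph g = Ph h ↔ ∀ x, SO x → pr8 (g.1 • x) = pr8 (h.1 • x) := by
  constructor
  · intro he x hx
    rw [← Ph_pr g hx, he, Ph_pr h hx]
  · intro he
    apply OGrp_ext
    intro v
    rw [← pr8_sv8 v, Ph_pr g (SO_sv8 v), Ph_pr h (SO_sv8 v)]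
    exact he _ (SO_sv8 v)

theorem Ph_one_iff (g : N) : Ph g = 1 ↔ ∀ x, SO x → pr8 (g.1 • x) = pr8 x := by
  rw [← map_one Ph, Ph_eq_iff]
  constructor
  · intro h x hx
    have := h x hx
    rwa [show ((1 : N) : Co0) = 1 from rfl, one_smul] at this
  · intro h x hx
    rw [show ((1 : N) : Co0) = 1 from rfl, one_smul]
    exact h x hx

end Cfsg.Agent.H90.Cz
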